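/-
Baer's additive structure on a group of odd order and class at most two, and its application to
coprime action: if a `p`-group `E` normalizes a `p'`-group `Y`, and both act on a `p`-group `D` of
class at most two (`p` odd) with `Y` acting nontrivially, then `E` has a fixed point in `D` that is
not fixed by `Y`.
-/
import Mathlib

set_option autoImplicit false

namespace Cfsg.Agent.Lib.Transitivity.Baer

open scoped commutatorElement

section Abelian

variable {V : Type*} [AddCommGroup V] [Finite V] {Γ : Type*} [Group Γ]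

theorem rho_mul_apply (ρ : Γ →* AddMonoid.End V) (a b : Γ) (v : V) : ρ (a * b) v = ρ a (ρ b v) := by
  rw [map_mul]
  rfl

/-- The coprime fixed point lemma on an abelian `p`-group. -/
theorem exists_fixed_not_fixed {p : ℕ} [hp : Fact p.Prime] {n : ℕ} (hV : Nat.card V = p ^ n)
    (ρ : Γ →* AddMonoid.End V) (E Y : Subgroup Γ) [Finite Y] (hE : IsPGroup p E)
    (hEY : ∀ e ∈ E, ∀ g ∈ Y, e⁻¹ * g * e ∈ Y ∧ e * g * e⁻¹ ∈ Y)
    (hY : (Nat.card Y).Coprime p)
    (hne : ∃ y ∈ Y, ∃ v : V, ρ y v ≠ v) :
    ∃ u : V, (∀ e ∈ E, ρ e u = u) ∧ ∃ y ∈ Y, ρ y u ≠ u := by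
  classical
  haveI : Fintype Y := Fintype.ofFinite Y
  let τ : V →+ V :=
    { toFun := fun v => ∑ g : Y, ρ (g : Γ) v
      map_zero' := by simp
      map_add' := by
        intro a b
        simp [Finset.sum_add_distrib] }
  have hτ : ∀ v, τ v = ∑ g : Y, ρ (g : Γ) v := fun _ => rfl
  -- the image of `τ` is fixed by `Y`
  have himg : ∀ y ∈ Y, ∀ v, ρ y (τ v) = τ v := by
    intro y hy v
    rw [hτ, map_sum]
    have h1 : ∀ g : Y, ρ y (ρ (g : Γ) v) = ρ ((⟨y, hy⟩ * g : Y) : Γ) v := by
      intro g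
      rw [Subgroup.coe_mul, rho_mul_apply]
    simp_rw [h1]
    exact Fintype.sum_equiv (Equiv.mulLeft (⟨y, hy⟩ : Y)) _ _ (fun g => rfl)
  -- compatibility with `E`
  have hcomm : ∀ e ∈ E, ∀ v, τ (ρ e v) = ρ e (τ v) := by
    intro e he v
    rw [hτ, hτ, map_sum]
    let f : Y ≃ Y :=
      { toFun := fun g => ⟨e⁻¹ * g * e, (hEY e he g g.2).1⟩
        invFun := fun g => ⟨e * g * e⁻¹, (hEY e he g g.2).2⟩
        left_inv := fun g => by
          apply Subtype.ext
          simp [mul_assoc]
        right_inv := fun g => by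
          apply Subtype.ext
          simp [mul_assoc] }
    refine Fintype.sum_equiv f _ _ (fun g => ?_)
    show ρ (g : Γ) (ρ e v) = ρ e (ρ (e⁻¹ * g * e) v)
    rw [← rho_mul_apply, ← rho_mul_apply]
    congr 2
    group
  -- the kernel of `τ` is nontrivial
  have hker : ∃ u₀ : V, u₀ ≠ 0 ∧ τ u₀ = 0 := by
    by_contra hcon
    push Not at hcon
    have hinj : Function.Injective τ := by
      rw [injective_iff_map_eq_zero]
      intro a ha
      by_contra ha0
      exact hcon a ha0 ha
    have hsurj : Function.Surjective τ := Finite.surjective_of_injective hinj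
    obtain ⟨y, hy, v, hv⟩ := hne
    obtain ⟨w, rfl⟩ := hsurj v
    exact hv (himg y hy w)
  -- the kernel as a set with an action of `E`
  let U : AddSubgroup V := τ.ker
  have hUe : ∀ e ∈ E, ∀ u ∈ U, ρ e u ∈ U := by
    intro e he u hu
    show τ (ρ e u) = 0
    rw [hcomm e he, (show τ u = 0 from hu), map_zero]
  letI : MulAction E U :=
    { smul := fun e u => ⟨ρ (e : Γ) u, hUe e e.2 u u.2⟩
      one_smul := fun u => by
        apply Subtype.ext
        show ρ ((1 : E) : Γ) (u : V) = u
        simp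
      mul_smul := fun a b u => by
        apply Subtype.ext
        show ρ ((a * b : E) : Γ) (u : V) = ρ (a : Γ) (ρ (b : Γ) (u : V))
        rw [Subgroup.coe_mul, rho_mul_apply] }
  have hsmul : ∀ (e : E) (u : U), ((e • u : U) : V) = ρ (e : Γ) u := fun _ _ => rfl
  obtain ⟨u₀, hu₀, hτu₀⟩ := hker
  haveI : Finite U := inferInstance
  have hcardU : p ∣ Nat.card U := by
    have h1 : Nat.card U ∣ p ^ n := by
      rw [← hV]
      exact AddSubgroup.card_addSubgroup_dvd_card U
    obtain ⟨k, -, hk⟩ := (Nat.dvd_prime_pow hp.out).mp h1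
    rw [hk]
    have hk0 : k ≠ 0 := by
      rintro rfl
      have h2 : Nat.card U = 1 := by simpa using hk
      have h3 : Subsingleton U := (Nat.card_eq_one_iff_unique.mp h2).1
      have h4 : (⟨u₀, hτu₀⟩ : U) = 0 := Subsingleton.elim _ _
      exact hu₀ (congrArg Subtype.val h4)
    exact dvd_pow_self p hk0
  have hmod := hE.card_modEq_card_fixedPoints U
  have hfix : p ∣ Nat.card (MulAction.fixedPoints E U) := by
    have h1 := hmod.symm
    rw [Nat.ModEq] at h1
    have h2 := (Nat.dvd_iff_mod_eq_zero).mp hcardU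
    rw [h2] at h1
    exact Nat.dvd_of_mod_eq_zero h1
  have hzero : (0 : U) ∈ MulAction.fixedPoints E U := by
    intro e
    apply Subtype.ext
    show ρ (e : Γ) (0 : V) = 0
    simp
  -- another fixed point
  have hex : ∃ u : MulAction.fixedPoints E U, u ≠ ⟨0, hzero⟩ := by
    by_contra hcon
    push Not at hcon
    have h1 : Subsingleton (MulAction.fixedPoints E U) :=
      ⟨fun a b => by rw [hcon a, hcon b]⟩
    have h2 : Nat.card (MulAction.fixedPoints E U) = 1 := by
      haveI : Nonempty (MulAction.fixedPoints E U) := ⟨⟨0, hzero⟩⟩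
      exact Nat.card_unique
    rw [h2] at hfix
    exact hp.out.one_lt.ne' (Nat.dvd_one.mp hfix)
  obtain ⟨⟨⟨u, huU⟩, hufix⟩, hune⟩ := hex
  have hu0 : u ≠ 0 := by
    intro h
    apply hune
    subst h
    rfl
  refine ⟨u, ?_, ?_⟩
  · intro e he
    have := hufix ⟨e, he⟩
    exact congrArg Subtype.val this
  · by_contra hcon
    push Not at hcon
    have hτu : τ u = 0 := huU
    have h1 : τ u = Nat.card Y • u := by
      rw [hτ]
      have : ∀ g : Y, ρ (g : Γ) u = u := fun g => hcon g g.2
      simp_rw [this]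
      simp [Nat.card_eq_fintype_card]
    rw [hτu] at h1
    have h2 : addOrderOf u ∣ Nat.card Y := addOrderOf_dvd_of_nsmul_eq_zero h1.symm
    have h3 : addOrderOf u ∣ p ^ n := by
      rw [← hV]
      exact addOrderOf_dvd_natCard u
    have h4 : addOrderOf u = 1 :=
      Nat.eq_one_of_dvd_coprimes (Nat.Coprime.pow_right n hY) h2 h3
    exact hu0 (AddMonoid.addOrderOf_eq_one_iff.mp h4)

end Abelian

section Baer

variable {D : Type*} [Group D] [Finite D]

/-- The halving map `z ↦ z ^ ((|D| + 1) / 2)`. -/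
noncomputable def half (D : Type*) [Group D] (z : D) : D := z ^ ((Nat.card D + 1) / 2)

theorem half_sq (hodd : Odd (Nat.card D)) (z : D) : half D z * half D z = z := by
  unfold half
  rw [← pow_add]
  obtain ⟨k, hk⟩ := hodd
  have h1 : (Nat.card D + 1) / 2 + (Nat.card D + 1) / 2 = Nat.card D + 1 := by omega
  rw [h1, pow_succ, pow_card_eq_one', one_mul]

theorem half_mul {a b : D} (h : Commute a b) : half D (a * b) = half D a * half D b :=
  h.mul_pow _

theorem half_one : half D (1 : D) = 1 := one_pow _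

theorem half_inv (a : D) : half D a⁻¹ = (half D a)⁻¹ := inv_pow _ _

/-- Commutators are central. -/
def ClassTwo (D : Type*) [Group D] : Prop := ∀ x y z : D, ⁅x, y⁆ * z = z * ⁅x, y⁆

variable (hc : ClassTwo D)

include hc

theorem half_central {c : D} (h : ∀ z : D, c * z = z * c) (z : D) : half D c * z = z * half D c := by
  have : Commute c z := h z
  exact (this.pow_left _).eq

theorem comm_mul_left (x y z : D) : ⁅x * y, z⁆ = ⁅x, z⁆ * ⁅y, z⁆ := by
  have h1 : ⁅x * y, z⁆ = x * ⁅y, z⁆ * x⁻¹ * ⁅x, z⁆ := by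
    simp only [commutatorElement_def]; group
  rw [h1, mul_assoc x, hc y z x⁻¹, ← mul_assoc x, mul_inv_cancel, one_mul, hc y z ⁅x, z⁆]

theorem comm_mul_right (x y z : D) : ⁅x, y * z⁆ = ⁅x, y⁆ * ⁅x, z⁆ := by
  have h1 : ⁅x, y * z⁆ = ⁅x, y⁆ * (y * ⁅x, z⁆ * y⁻¹) := by
    simp only [commutatorElement_def]; group
  rw [h1, mul_assoc y, hc x z y⁻¹, ← mul_assoc y, mul_inv_cancel, one_mul]

omit hc in
theorem comm_eq_one_left {a : D} (h : ∀ z : D, a * z = z * a) (z : D) : ⁅a, z⁆ = 1 := by
  rw [commutatorElement_def, h z]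
  group

omit hc in
theorem comm_eq_one_right {a : D} (h : ∀ z : D, a * z = z * a) (z : D) : ⁅z, a⁆ = 1 := by
  rw [commutatorElement_def, mul_assoc z a, h z⁻¹]
  group

omit hc in
theorem comm_inv (x y : D) : ⁅y, x⁆ = ⁅x, y⁆⁻¹ := by
  simp only [commutatorElement_def]; group

/-- Baer's sum. -/
noncomputable def baerAdd (x y : D) : D := x * y * half D ⁅y, x⁆

omit hc in
theorem baerAdd_def (x y : D) : baerAdd x y = x * y * half D ⁅y, x⁆ := rfl

theorem baerAdd_assoc (x y z : D) : baerAdd (baerAdd x y) z = baerAdd x (baerAdd y z) := by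
  have hA : ∀ a b t : D, half D ⁅a, b⁆ * t = t * half D ⁅a, b⁆ :=
    fun a b t => half_central hc (fun w => hc a b w) t
  simp only [baerAdd_def]
  have e1 : ⁅z, x * y * half D ⁅y, x⁆⁆ = ⁅z, x⁆ * ⁅z, y⁆ := by
    rw [comm_mul_right hc, comm_mul_right hc, comm_eq_one_right (fun w => hA y x w), mul_one]
  have e2 : ⁅y * z * half D ⁅z, y⁆, x⁆ = ⁅y, x⁆ * ⁅z, x⁆ := by
    rw [comm_mul_left hc, comm_mul_left hc, comm_eq_one_left (fun w => hA z y w), mul_one]
  rw [e1, e2, half_mul (show Commute _ _ from hc z x _), half_mul (show Commute _ _ from hc y x _)]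
  -- all halves are central
  set a := half D ⁅y, x⁆ with ha
  set b := half D ⁅z, x⁆ with hb
  set c := half D ⁅z, y⁆ with hc'
  have haz : a * z = z * a := hA y x z
  have hac : a * c = c * a := hA y x c
  have hbc : b * c = c * b := hA z x c
  calc x * y * a * z * (b * c) = x * y * (a * z) * (b * c) := by group
    _ = x * y * (z * a) * (b * c) := by rw [haz]
    _ = x * y * z * (a * b * c) := by group
    _ = x * y * z * (a * (b * c)) := by group
    _ = x * y * z * (a * (c * b)) := by rw [hbc]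
    _ = x * y * z * ((a * c) * b) := by group
    _ = x * y * z * ((c * a) * b) := by rw [hac]
    _ = x * (y * z * c) * (a * b) := by group

theorem baerAdd_comm (hodd : Odd (Nat.card D)) (x y : D) : baerAdd x y = baerAdd y x := by
  simp only [baerAdd_def]
  have h1 : ⁅y, x⁆ = ⁅x, y⁆⁻¹ := comm_inv x y
  rw [h1, half_inv]
  have h2 : x * y = y * x * ⁅x, y⁆ := by
    rw [← hc x y (y * x)]
    simp [commutatorElement_def]
  rw [h2]
  have h3 : ⁅x, y⁆ * (half D ⁅x, y⁆)⁻¹ = half D ⁅x, y⁆ := by
    calc ⁅x, y⁆ * (half D ⁅x, y⁆)⁻¹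
        = (half D ⁅x, y⁆ * half D ⁅x, y⁆) * (half D ⁅x, y⁆)⁻¹ := by rw [half_sq hodd]
      _ = half D ⁅x, y⁆ := by group
  rw [mul_assoc (y * x), h3]

omit hc in
theorem baerAdd_one (x : D) : baerAdd x 1 = x := by
  simp [baerAdd_def, half_one]

omit hc in
theorem one_baerAdd (x : D) : baerAdd 1 x = x := by
  simp [baerAdd_def, half_one]

omit hc in
theorem baerAdd_inv (x : D) : baerAdd x⁻¹ x = 1 := by
  simp [baerAdd_def, half_one, commutatorElement_def]

omit hc in
theorem map_baerAdd (φ : D →* D) (x y : D) : φ (baerAdd x y) = baerAdd (φ x) (φ y) := by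
  simp only [baerAdd_def, half, map_mul, map_pow, map_commutatorElement]

/-- Baer's abelian group on `D`. -/
@[reducible] noncomputable def baerGroup (hodd : Odd (Nat.card D)) : AddCommGroup D :=
  letI : Add D := ⟨baerAdd⟩
  letI : Zero D := ⟨1⟩
  letI : Neg D := ⟨fun x => x⁻¹⟩
  { AddGroup.ofLeftAxioms (baerAdd_assoc hc) one_baerAdd baerAdd_inv with
    add_comm := baerAdd_comm hc hodd }

end Baer

section Main

variable {G : Type*} [Group G] [Finite G]

/-- The main application: `E` has a fixed point in `D` not fixed by `Y`. -/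
theorem exists_commute_not_commute {p : ℕ} [hp : Fact p.Prime] (hp2 : p ≠ 2) (D E Y : Subgroup G)
    (hD : IsPGroup p D) (hc : ∀ x ∈ D, ∀ y ∈ D, ∀ z ∈ D, ⁅x, y⁆ * z = z * ⁅x, y⁆)
    (hED : E ≤ Subgroup.normalizer (D : Set G)) (hYD : Y ≤ Subgroup.normalizer (D : Set G))
    (hE : IsPGroup p E) (hEY : E ≤ Subgroup.normalizer (Y : Set G))
    (hY : (Nat.card Y).Coprime p) (hne : ∃ y ∈ Y, ∃ v ∈ D, y * v ≠ v * y) :
    ∃ u ∈ D, (∀ e ∈ E, e * u = u * e) ∧ ∃ y ∈ Y, y * u ≠ u * y := by
  classical
  obtain ⟨n, hn⟩ := IsPGroup.iff_card.mp hD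
  have hodd : Odd (Nat.card D) := by
    rw [hn]
    exact (hp.out.odd_of_ne_two hp2).pow
  have hc' : ClassTwo D := by
    intro x y z
    apply Subtype.ext
    exact hc x x.2 y y.2 z z.2
  letI : AddCommGroup D := baerGroup hc' hodd
  let S : Subgroup G := Subgroup.normalizer (D : Set G)
  have hconj : ∀ g : S, ∀ v : D, (g : G) * v * (g : G)⁻¹ ∈ D := fun g v =>
    (Subgroup.mem_normalizer_iff.mp g.2 v).1 v.2
  let ρ : S →* AddMonoid.End D :=
    { toFun := fun g =>
        { toFun := fun v => ⟨(g : G) * v * (g : G)⁻¹, hconj g v⟩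
          map_zero' := by
            apply Subtype.ext
            show (g : G) * ((1 : D) : G) * (g : G)⁻¹ = ((1 : D) : G)
            simp
          map_add' := by
            intro v w
            have hφ := map_baerAdd (D.normalizerMonoidHom g : D ≃* D).toMonoidHom v w
            exact hφ }
      map_one' := by
        refine AddMonoidHom.ext fun v => ?_
        apply Subtype.ext
        show ((1 : S) : G) * v * ((1 : S) : G)⁻¹ = v
        simp
      map_mul' := by
        intro a b
        refine AddMonoidHom.ext fun v => ?_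
        apply Subtype.ext
        show ((a * b : S) : G) * v * ((a * b : S) : G)⁻¹ = a * (b * v * (b : G)⁻¹) * (a : G)⁻¹
        simp only [Subgroup.coe_mul, mul_inv_rev]
        group }
  have hρ : ∀ (g : S) (v : D), ((ρ g v : D) : G) = (g : G) * v * (g : G)⁻¹ := fun _ _ => rfl
  have hfix : ∀ (g : S) (v : D), ρ g v = v ↔ (g : G) * v = v * g := by
    intro g v
    constructor
    · intro h
      have h1 := congrArg (Subtype.val) h
      rw [hρ] at h1
      calc (g : G) * v = (g : G) * v * (g : G)⁻¹ * g := by group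
        _ = v * g := by rw [h1]
    · intro h
      apply Subtype.ext
      rw [hρ, h]
      group
  let E' : Subgroup S := E.subgroupOf S
  let Y' : Subgroup S := Y.subgroupOf S
  have hcardY : Nat.card Y' = Nat.card Y :=
    Nat.card_congr (Subgroup.subgroupOfEquivOfLe hYD).toEquiv
  have hE' : IsPGroup p E' := hE.comap_subtype
  obtain ⟨u, hu1, y, hy, hu2⟩ := exists_fixed_not_fixed hn ρ E' Y' hE'
    (by
      intro e he g hg
      have he' : (e : G) ∈ E := he
      have hg' : (g : G) ∈ Y := hg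
      have h1 := Subgroup.mem_normalizer_iff.mp (hEY he') g
      constructor
      · have h2 := Subgroup.mem_normalizer_iff.mp (hEY (E.inv_mem he')) g
        show ((e⁻¹ * g * e : S) : G) ∈ Y
        have := h2.1 hg'
        simpa using this
      · show ((e * g * e⁻¹ : S) : G) ∈ Y
        have := h1.1 hg'
        simpa using this)
    (by rw [hcardY]; exact hY)
    (by
      obtain ⟨y, hy, v, hv, hyv⟩ := hne
      refine ⟨⟨y, hYD hy⟩, hy, ⟨v, hv⟩, ?_⟩
      intro h
      exact hyv ((hfix _ _).mp h))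
  refine ⟨u, u.2, ?_, y, hy, ?_⟩
  · intro e he
    exact (hfix ⟨e, hED he⟩ u).mp (hu1 _ he)
  · intro h
    exact hu2 ((hfix y u).mpr h)

end Main

end Cfsg.Agent.Lib.Transitivity.Baer
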