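/-
Invariant `p'`-subgroups in `p`-constrained groups: if `O_{p'}(H) = 1`-type data hold and `E` is an
abelian `p`-subgroup containing the part of `O_p(H)` centralizing it, then every `E`-invariant
`p'`-subgroup is trivial (for `p = 2` assuming that `E` acts quadratically).
-/
import Cfsg.Agent.Lib.Transitivity.Baer
import Cfsg.Agent.Lib.Core.ThreeNorm
import Cfsg.Agent.Lib.Core.Constrained
import Cfsg.Agent.Lib.CharP.Basic
import Cfsg.Agent.Lib.Coprime.Action
import Cfsg.Agent.Lib.OddLocal.CN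
import Cfsg.Agent.Lib.OddLocal.CNQuot

set_option autoImplicit false

namespace Cfsg.Agent.Lib.Transitivity.Local

open Cfsg Cfsg.Agent.Lib.Core.Basic Cfsg.Agent.Lib.Core.ThreeNorm Cfsg.Agent.Lib.Coprime.Action
  Cfsg.Agent.Lib.CharP.Basic Cfsg.Agent.Lib.Transitivity.Baer
open scoped commutatorElement

section Char

variable {H : Type*} [Group H] [Finite H] {p : ℕ} [hp : Fact p.Prime]

theorem commute_of_mem_normal {P Y : Subgroup H} (hPn : P.Normal) (hYP : Y ⊓ P = ⊥) {a y : H}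
    (haP : a ∈ P) (haY : a ∈ Subgroup.normalizer (Y : Set H)) (hy : y ∈ Y) : y * a = a * y := by
  have h1 : ⁅a, y⁆ ∈ Y := by
    rw [commutatorElement_def]
    exact Y.mul_mem ((Subgroup.mem_normalizer_iff.mp haY y).1 hy) (Y.inv_mem hy)
  have h2 : ⁅a, y⁆ ∈ P := by
    rw [commutatorElement_def, mul_assoc, mul_assoc]
    refine P.mul_mem haP ?_
    rw [← mul_assoc]
    exact hPn.conj_mem _ (P.inv_mem haP) y
  have h3 : ⁅a, y⁆ ∈ Y ⊓ P := ⟨h1, h2⟩
  rw [hYP, Subgroup.mem_bot, commutatorElement_eq_one_iff_mul_comm] at h3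
  exact h3.symm

/-- The quadratic case. -/
theorem quadratic_case {P E Y : Subgroup H} (hPn : P.Normal) (hPp : IsPGroup p P)
    (hchar : Subgroup.centralizer (P : Set H) ≤ P) (hE : IsPGroup p E)
    (hEc : ∀ a ∈ E, ∀ b ∈ E, a * b = b * a)
    (hfull : ∀ x ∈ P, (∀ e ∈ E, e * x = x * e) → x ∈ E)
    (hEY : E ≤ Subgroup.normalizer (Y : Set H)) (hY : (Nat.card Y).Coprime p)
    (hquad : ∀ x ∈ P, ∀ e ∈ E, ∀ f ∈ E, f * ⁅x, e⁆ = ⁅x, e⁆ * f) : Y = ⊥ := by
  have hYP : Y ⊓ P = ⊥ := by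
    rw [inf_comm]
    exact inf_eq_bot_of_isPGroup_of_coprime hPp hY
  set E₀ := E ⊓ P with hE₀
  have hE₀Y : ∀ a ∈ E₀, ∀ y ∈ Y, y * a = a * y := fun a ha y hy =>
    commute_of_mem_normal hPn hYP ha.2 (hEY ha.1) hy
  have hcommE₀ : ∀ x ∈ P, ∀ e ∈ E, ⁅x, e⁆ ∈ E₀ := by
    intro x hx e he
    have h1 : ⁅x, e⁆ ∈ P := by
      rw [commutatorElement_def, mul_assoc, mul_assoc]
      refine P.mul_mem hx ?_
      rw [← mul_assoc]
      exact hPn.conj_mem _ (P.inv_mem hx) e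
    exact ⟨hfull _ h1 (fun f hf => hquad x hx e he f hf), h1⟩
  -- normalizers of `E₀`
  have hYN : Y ≤ Subgroup.normalizer (E₀ : Set H) := by
    rw [Subgroup.le_normalizer_iff]
    intro y hy a ha
    rw [hE₀Y a ha y hy]
    simpa using ha
  have hEN : E ≤ Subgroup.normalizer (E₀ : Set H) := by
    rw [Subgroup.le_normalizer_iff]
    intro e he a ha
    refine ⟨E.mul_mem (E.mul_mem he ha.1) (E.inv_mem he), hPn.conj_mem a ha.2 e⟩
  have hPN : P ≤ Subgroup.normalizer (E₀ : Set H) := by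
    rw [Subgroup.le_normalizer_iff]
    intro x hx a ha
    have h1 : x * a * x⁻¹ = ⁅x, a⁆ * a := by
      simp [commutatorElement_def]
    rw [h1]
    exact E₀.mul_mem (hcommE₀ x hx a ha.1) ha
  have hP_E : ⁅P, E⁆ ≤ E₀ := by
    rw [Subgroup.commutator_le]
    exact fun x hx e he => hcommE₀ x hx e he
  have hE₀Ybot : ⁅E₀, Y⁆ = ⊥ := by
    rw [Subgroup.commutator_eq_bot_iff_le_centralizer]
    intro a ha
    rw [Subgroup.mem_centralizer_iff]
    intro y hy
    exact hE₀Y a ha y hy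
  have hYNP : Y ≤ Subgroup.normalizer (P : Set H) := by
    rw [Subgroup.le_normalizer_iff]
    intro y _ x hx
    exact hPn.conj_mem x hx y
  have hthree : ⁅⁅Y, E⁆, P⁆ ≤ E₀ := by
    apply three_le_of_le_normalizer hYN hEN hPN
    · -- ⁅⁅E, P⁆, Y⁆ ≤ E₀
      rw [Subgroup.commutator_comm E P]
      have : ⁅⁅P, E⁆, Y⁆ ≤ ⁅E₀, Y⁆ := Subgroup.commutator_mono hP_E le_rfl
      rw [hE₀Ybot] at this
      exact this.trans bot_le
    · -- ⁅⁅P, Y⁆, E⁆ ≤ E₀
      have h1 : ⁅P, Y⁆ ≤ P := commutator_le_of_le_normalizer hYNP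
      exact (Subgroup.commutator_mono h1 le_rfl).trans hP_E
  set Y₁ := ⁅Y, E⁆ with hY₁
  have hY₁Y : Y₁ ≤ Y := commutator_le_of_le_normalizer hEY
  have hY₁N : Y₁ ≤ Subgroup.normalizer (P : Set H) := hY₁Y.trans hYNP
  have hcop : (Nat.card Y₁).Coprime (Nat.card P) := by
    obtain ⟨n, hn⟩ := IsPGroup.iff_card.mp hPp
    rw [hn]
    exact Nat.Coprime.pow_right n (Nat.Coprime.coprime_dvd_left (Subgroup.card_dvd_of_le hY₁Y) hY)
  have hsolv : Group.IsSolvable Y₁ ∨ Group.IsSolvable P := Or.inr (by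
    haveI := hPp.isNilpotent
    infer_instance)
  have hcc := commutator_commutator_eq hY₁N hcop hsolv
  have hPY₁ : ⁅P, Y₁⁆ = ⊥ := by
    rw [← hcc, eq_bot_iff]
    have h1 : ⁅P, Y₁⁆ ≤ E₀ := by
      rw [Subgroup.commutator_comm]
      exact hthree
    have h2 : ⁅⁅P, Y₁⁆, Y₁⁆ ≤ ⁅E₀, Y⁆ := Subgroup.commutator_mono h1 hY₁Y
    rwa [hE₀Ybot] at h2
  have hY₁bot : Y₁ = ⊥ := by
    rw [eq_bot_iff, ← hYP]
    apply le_inf hY₁Y
    refine le_trans ?_ hchar
    rw [Subgroup.commutator_comm, Subgroup.commutator_eq_bot_iff_le_centralizer] at hPY₁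
    exact hPY₁
  have hYE : ∀ y ∈ Y, ∀ e ∈ E, y * e = e * y := by
    intro y hy e he
    have h1 : ⁅y, e⁆ ∈ Y₁ := Subgroup.commutator_mem_commutator hy he
    rw [hY₁bot, Subgroup.mem_bot, commutatorElement_eq_one_iff_mul_comm] at h1
    exact h1
  rw [eq_bot_iff]
  intro y hy
  have hord : (orderOf y).Coprime p := (coprime_card_iff_forall_orderOf Y).mp hY y hy
  have hAB := thompson_AB P E hPp hE
    (fun r _ x hx => hPn.conj_mem x hx r) y (fun x hx => hPn.conj_mem x hx y)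
    (fun r hr => hYE y hy r hr) hord
    (fun x hx hxE => by
      have hxE₀ : x ∈ E₀ := ⟨hfull x hx (fun e he => hxE e he), hx⟩
      exact hE₀Y x hxE₀ y hy)
  have hyC : y ∈ Subgroup.centralizer (P : Set H) := by
    rw [Subgroup.mem_centralizer_iff]
    intro x hx
    exact (hAB x hx).symm
  have : y ∈ Y ⊓ P := ⟨hy, hchar hyC⟩
  rwa [hYP] at this

/-- The case of odd `p`. -/
theorem odd_case (hp2 : p ≠ 2) {P E Y : Subgroup H} (hPn : P.Normal) (hPp : IsPGroup p P)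
    (hchar : Subgroup.centralizer (P : Set H) ≤ P) (hE : IsPGroup p E)
    (hfull : ∀ x ∈ P, (∀ e ∈ E, e * x = x * e) → x ∈ E)
    (hEY : E ≤ Subgroup.normalizer (Y : Set H)) (hY : (Nat.card Y).Coprime p) : Y = ⊥ := by
  classical
  by_contra hYne
  have hYP : Y ⊓ P = ⊥ := by
    rw [inf_comm]
    exact inf_eq_bot_of_isPGroup_of_coprime hPp hY
  let 𝓓 : Set (Subgroup H) := {D | D ≤ P ∧ E ≤ Subgroup.normalizer (D : Set H) ∧
    Y ≤ Subgroup.normalizer (D : Set H) ∧ ∃ y ∈ Y, ∃ v ∈ D, y * v ≠ v * y}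
  have hPN : ∀ T : Subgroup H, T ≤ Subgroup.normalizer (P : Set H) := by
    intro T
    rw [Subgroup.le_normalizer_iff]
    intro y _ x hx
    exact hPn.conj_mem x hx y
  have hP𝓓 : P ∈ 𝓓 := by
    refine ⟨le_rfl, hPN E, hPN Y, ?_⟩
    by_contra hcon
    push Not at hcon
    apply hYne
    rw [eq_bot_iff, ← hYP]
    refine le_inf le_rfl (le_trans ?_ hchar)
    intro y hy
    rw [Subgroup.mem_centralizer_iff]
    intro v hv
    exact (hcon y hy v hv).symm
  obtain ⟨D, -, hDmin⟩ := (Set.toFinite 𝓓).exists_le_minimal hP𝓓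
  obtain ⟨hDP, hED, hYD, y₀, hy₀, v₀, hv₀, hne⟩ := hDmin.1
  have hDp : IsPGroup p D := hPp.to_le hDP
  have hmin : ∀ D' : Subgroup H, D' ≤ D → D' ≤ P → E ≤ Subgroup.normalizer (D' : Set H) →
      Y ≤ Subgroup.normalizer (D' : Set H) → D' ≠ D → ∀ y ∈ Y, ∀ v ∈ D', y * v = v * y := by
    intro D' hle hle' h1 h2 hne' y hy v hv
    by_contra hcon
    have hmem : D' ∈ 𝓓 := ⟨hle', h1, h2, y, hy, v, hv, hcon⟩
    exact hne' (le_antisymm hle (hDmin.2 hmem hle))
  -- `[D, Y] = D`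
  have hD₁le : ⁅D, Y⁆ ≤ D := commutator_le_of_le_normalizer hYD
  have hcop : (Nat.card Y).Coprime (Nat.card D) := by
    obtain ⟨n, hn⟩ := IsPGroup.iff_card.mp hDp
    rw [hn]
    exact Nat.Coprime.pow_right n hY
  have hsolv : Group.IsSolvable Y ∨ Group.IsSolvable D := Or.inr (by
    haveI := hDp.isNilpotent
    infer_instance)
  have hcc := commutator_commutator_eq hYD hcop hsolv
  have hD₁ : ⁅D, Y⁆ = D := by
    by_contra hcon
    have h1 := hmin ⁅D, Y⁆ hD₁le (hD₁le.trans hDP) (le_normalizer_commutator_of_le hED hEY)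
      (le_normalizer_commutator_right D Y) hcon
    have h2 : ⁅⁅D, Y⁆, Y⁆ = ⊥ := by
      rw [Subgroup.commutator_eq_bot_iff_le_centralizer]
      intro v hv
      rw [Subgroup.mem_centralizer_iff]
      intro y hy
      exact h1 y hy v hv
    rw [hcc, Subgroup.commutator_eq_bot_iff_le_centralizer] at h2
    apply hne
    exact (Subgroup.mem_centralizer_iff.mp (h2 hv₀) y₀ hy₀)
  -- `D' < D`
  have hD'le : ⁅D, D⁆ ≤ D := Subgroup.commutator_le_self D
  have hDne : D ≠ ⊥ := by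
    intro h
    rw [h, Subgroup.mem_bot] at hv₀
    subst hv₀
    simp at hne
  have hD'ne : ⁅D, D⁆ ≠ D := by
    intro h
    haveI : Group.IsNilpotent D := hDp.isNilpotent
    haveI : Nontrivial D := (Subgroup.nontrivial_iff_ne_bot D).mpr hDne
    have h1 := IsSolvable.commutator_lt_top_of_nontrivial D
    have h2 : (commutator D).map D.subtype = ⁅D, D⁆ := Subgroup.map_subtype_commutator D
    rw [h] at h2
    apply h1.ne
    apply Subgroup.map_injective D.subtype_injective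
    rw [h2, ← MonoidHom.range_eq_map, Subgroup.range_subtype]
  have hD'Y := hmin ⁅D, D⁆ hD'le (hD'le.trans hDP) (le_normalizer_commutator_of_le hED hED)
    (le_normalizer_commutator_of_le hYD hYD) hD'ne
  have hD'YBot : ⁅⁅D, D⁆, Y⁆ = ⊥ := by
    rw [Subgroup.commutator_eq_bot_iff_le_centralizer]
    intro v hv
    rw [Subgroup.mem_centralizer_iff]
    intro y hy
    exact hD'Y y hy v hv
  -- class at most two
  have hclass : ⁅⁅Y, D⁆, ⁅D, D⁆⁆ ≤ ⊥ := by
    apply three_le_of_le_normalizer (R := ⊥)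
    · rw [Subgroup.le_normalizer_iff]; intro y _ x hx; simp_all
    · rw [Subgroup.le_normalizer_iff]; intro y _ x hx; simp_all
    · rw [Subgroup.le_normalizer_iff]; intro y _ x hx; simp_all
    · -- ⁅⁅D, D'⁆, Y⁆
      have h1 : ⁅D, ⁅D, D⁆⁆ ≤ ⁅D, D⁆ := by
        rw [Subgroup.commutator_comm]
        apply commutator_le_of_le_normalizer
        exact le_normalizer_commutator_left D D
      have h2 : ⁅⁅D, ⁅D, D⁆⁆, Y⁆ ≤ ⁅⁅D, D⁆, Y⁆ := Subgroup.commutator_mono h1 le_rfl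
      rwa [hD'YBot] at h2
    · rw [hD'YBot, Subgroup.commutator_bot_left]
  rw [Subgroup.commutator_comm Y D, hD₁, le_bot_iff] at hclass
  have hc : ∀ x ∈ D, ∀ y ∈ D, ∀ z ∈ D, ⁅x, y⁆ * z = z * ⁅x, y⁆ := by
    intro x hx y hy z hz
    have h1 : ⁅x, y⁆ ∈ ⁅D, D⁆ := Subgroup.commutator_mem_commutator hx hy
    have h2 : ⁅z, ⁅x, y⁆⁆ ∈ ⁅D, ⁅D, D⁆⁆ := Subgroup.commutator_mem_commutator hz h1
    rw [hclass, Subgroup.mem_bot, commutatorElement_eq_one_iff_mul_comm] at h2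
    exact h2.symm
  obtain ⟨u, huD, hu1, y, hy, hu2⟩ := exists_commute_not_commute hp2 D E Y hDp hc hED hYD hE hEY hY
    ⟨y₀, hy₀, v₀, hv₀, hne⟩
  have huE : u ∈ E := hfull u (hDP huD) hu1
  exact hu2 (commute_of_mem_normal hPn hYP (hDP huD) (hEY huE) hy)

/-- Every `E`-invariant `p'`-subgroup is trivial in a group of characteristic `p`. -/
theorem eq_bot_of_char {P E Y : Subgroup H} (hPn : P.Normal) (hPp : IsPGroup p P)
    (hchar : Subgroup.centralizer (P : Set H) ≤ P) (hE : IsPGroup p E)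
    (hEc : ∀ a ∈ E, ∀ b ∈ E, a * b = b * a)
    (hfull : ∀ x ∈ P, (∀ e ∈ E, e * x = x * e) → x ∈ E)
    (hEY : E ≤ Subgroup.normalizer (Y : Set H)) (hY : (Nat.card Y).Coprime p)
    (h2 : p = 2 → ∀ x ∈ P, ∀ e ∈ E, ∀ f ∈ E, f * ⁅x, e⁆ = ⁅x, e⁆ * f) : Y = ⊥ := by
  by_cases hp2 : p = 2
  · exact quadratic_case hPn hPp hchar hE hEc hfull hEY hY (h2 hp2)
  · exact odd_case hp2 hPn hPp hchar hE hfull hEY hY

end Char

section Core

variable {G : Type*} [Group G] [Finite G] {p : ℕ} [hp : Fact p.Prime]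

theorem comm_central_of_class_le_two {S : Subgroup G} (hS : Group.IsNilpotent S)
    (hc : Group.nilpotencyClass S ≤ 2) {a b c : G} (ha : a ∈ S) (hb : b ∈ S) (hcS : c ∈ S) :
    c * ⁅a, b⁆ = ⁅a, b⁆ * c := by
  have h1 : upperCentralSeries S 2 = ⊤ := upperCentralSeries_eq_top_iff_nilpotencyClass_le.mpr hc
  have h2 : (⟨a, ha⟩ : S) ∈ upperCentralSeries S 2 := by rw [h1]; trivial
  have h3 := mem_upperCentralSeries_succ_iff.mp h2 ⟨b, hb⟩
  rw [upperCentralSeries_one, Subgroup.mem_center_iff] at h3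
  have h4 := h3 ⟨c, hcS⟩
  have h5 := congrArg Subtype.val h4
  simpa [commutatorElement_def] using h5

/-- `E`-invariant `p'`-subgroups of a `p`-constrained subgroup `X ≥ E` lie in `O_{p'}(X)`. -/
theorem le_core_of_invariant (X E Y : Subgroup G) (hX : IsPConstrained p ↥X) (hEX : E ≤ X)
    (hYX : Y ≤ X) (hE : IsPGroup p E) (hEc : ∀ a ∈ E, ∀ b ∈ E, a * b = b * a)
    (hfull : ∀ x ∈ Subgroup.centralizer (E : Set G), IsPGroup p (Subgroup.zpowers x) → x ∈ E)
    (hEY : E ≤ Subgroup.normalizer (Y : Set G)) (hY : (Nat.card Y).Coprime p)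
    (h2 : p = 2 → ∀ S : Sylow p G, Group.IsNilpotent (S : Subgroup G) ∧
      Group.nilpotencyClass (S : Subgroup G) ≤ 2) :
    Y ≤ (pPrimeCore p ↥X).map X.subtype := by
  set L := pPrimeCore p ↥X with hL
  haveI hLn : L.Normal := pPrimeCore_normal p ↥X
  have hLc : (Nat.card L).Coprime p := pPrimeCore_coprime
  set π : ↥X →* ↥X ⧸ L := QuotientGroup.mk' L with hπ
  have hπs : Function.Surjective π := QuotientGroup.mk'_surjective L
  have hπker : ∀ x : ↥X, π x = 1 ↔ x ∈ L := fun x => QuotientGroup.eq_one_iff x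
  have hchar : Subgroup.centralizer (pCore p (↥X ⧸ L) : Set (↥X ⧸ L)) ≤ pCore p (↥X ⧸ L) :=
    (Cfsg.Agent.Lib.Core.Constrained.isPConstrained_iff.mp hX)
  set E₁ : Subgroup ↥X := E.subgroupOf X with hE₁
  set Y₁ : Subgroup ↥X := Y.subgroupOf X with hY₁
  have hE₁p : IsPGroup p E₁ := hE.comap_subtype
  have key : Y₁.map π = ⊥ := by
    apply eq_bot_of_char (P := pCore p (↥X ⧸ L)) (E := E₁.map π) (pCore_normal p _)
      pCore_isPGroup hchar (hE₁p.map π)
    · rintro _ ⟨a, ha, rfl⟩ _ ⟨b, hb, rfl⟩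
      rw [← map_mul, ← map_mul]
      congr 1
      exact Subtype.ext (hEc _ ha _ hb)
    · intro xb hxb hcom
      obtain ⟨x, rfl⟩ := hπs xb
      have hx : ∀ u ∈ E₁, x * u * x⁻¹ * u⁻¹ ∈ L := by
        intro u hu
        rw [← hπker]
        have h1 := hcom (π u) ⟨u, hu, rfl⟩
        simp only [map_mul, map_inv]
        rw [← h1]
        group
      obtain ⟨n, hn, c, hc, hxc⟩ :=
        Cfsg.Agent.Lib.Core.CoprimeQuotient.exists_mem_centralizer_of_commutator_mem hLn hE₁p hLc hx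
      have hπx : π x = π c := by
        rw [hxc, map_mul, (hπker n).mpr hn, one_mul]
      have hc₀ : (c : G) ∈ Subgroup.centralizer (E : Set G) := by
        rw [Subgroup.mem_centralizer_iff]
        intro e he
        have h1 := Subgroup.mem_centralizer_iff.mp hc ⟨e, hEX he⟩ (show (⟨e, hEX he⟩ : ↥X) ∈ E₁ from he)
        exact congrArg Subtype.val h1
      obtain ⟨u, v, hu, hv, huv, ⟨k, hk⟩, hvc⟩ :=
        Cfsg.Agent.Lib.OddLocal.CN.exists_split p (c : G)
      have hzp : Subgroup.zpowers (c : G) ≤ Subgroup.centralizer (E : Set G) :=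
        (Subgroup.zpowers_le).mpr hc₀
      have huE : u ∈ E := hfull u (hzp hu)
        (Cfsg.Agent.Lib.OddLocal.CNQuot.isPGroup_zpowers_iff hk)
      obtain ⟨t, ht⟩ := Subgroup.mem_zpowers_iff.mp hv
      obtain ⟨s, hs⟩ := Subgroup.mem_zpowers_iff.mp hu
      -- the image of `v` is trivial
      have hxp : IsPGroup p (pCore p (↥X ⧸ L)) := pCore_isPGroup
      obtain ⟨m, hm⟩ := (IsPGroup.iff_orderOf (p := p)).mp hxp ⟨π x, hxb⟩
      have hm' : (π x) ^ p ^ m = 1 := by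
        have : orderOf (π x) = p ^ m := by rwa [Subgroup.orderOf_mk] at hm
        rw [← this]
        exact pow_orderOf_eq_one _
      have hvX : (c ^ t : ↥X) = ⟨v, by rw [← ht]; exact X.zpow_mem c.2 t⟩ := by
        apply Subtype.ext
        simpa using ht
      have hv1 : π (c ^ t) = 1 := by
        have h1 : (π (c ^ t)) ^ p ^ m = 1 := by
          rw [map_zpow, ← hπx, ← zpow_natCast, ← zpow_mul, mul_comm, zpow_mul, zpow_natCast, hm',
            one_zpow]
        have h2 : (π (c ^ t)) ^ orderOf v = 1 := by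
          rw [← map_pow, hvX]
          have : (⟨v, by rw [← ht]; exact X.zpow_mem c.2 t⟩ : ↥X) ^ orderOf v = 1 := by
            apply Subtype.ext
            simp [pow_orderOf_eq_one]
          rw [this, map_one]
        have h3 : orderOf (π (c ^ t)) ∣ p ^ m := orderOf_dvd_of_pow_eq_one h1
        have h4 : orderOf (π (c ^ t)) ∣ orderOf v := orderOf_dvd_of_pow_eq_one h2
        have h5 : orderOf (π (c ^ t)) = 1 :=
          Nat.eq_one_of_dvd_coprimes (Nat.Coprime.pow_right m hvc) h4 h3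
        exact orderOf_eq_one_iff.mp h5
      have hceq : c = c ^ s * c ^ t := by
        apply Subtype.ext
        simp only [Subgroup.coe_mul, Subgroup.coe_zpow]
        rw [ht, hs]
        exact huv
      refine ⟨c ^ s, ?_, ?_⟩
      · show ((c ^ s : ↥X) : G) ∈ E
        simp only [Subgroup.coe_zpow]
        rw [hs]
        exact huE
      · rw [hπx]
        nth_rewrite 2 [hceq]
        rw [map_mul, hv1, mul_one]
    · rw [Subgroup.le_normalizer_iff]
      rintro _ ⟨e, he, rfl⟩ _ ⟨y, hy, rfl⟩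
      refine ⟨e * y * e⁻¹, ?_, by simp⟩
      exact (Subgroup.mem_normalizer_iff.mp (hEY he) y).1 hy
    · have h1 : Nat.card (Y₁.map π) ∣ Nat.card Y₁ := Subgroup.card_map_dvd Y₁ π
      have h2 : Nat.card Y₁ = Nat.card Y := Nat.card_congr (Subgroup.subgroupOfEquivOfLe hYX).toEquiv
      rw [h2] at h1
      exact Nat.Coprime.coprime_dvd_left h1 hY
    · intro hp2
      -- a Sylow subgroup of `X` containing `E`
      obtain ⟨S₂, hS₂⟩ := hE₁p.exists_le_sylow
      let Sb : Sylow p (↥X ⧸ L) := S₂.mapSurjective hπs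
      have hSb : (Sb : Subgroup (↥X ⧸ L)) = (S₂ : Subgroup ↥X).map π := rfl
      have hS₂G : IsPGroup p ((S₂ : Subgroup ↥X).map X.subtype) := S₂.isPGroup'.map _
      obtain ⟨S, hS⟩ := hS₂G.exists_le_sylow
      obtain ⟨hnil, hcl⟩ := h2 hp2 S
      intro xb hxb eb heb fb hfb
      have h1 : xb ∈ (Sb : Subgroup (↥X ⧸ L)) := pCore_le_sylow Sb hxb
      rw [hSb] at h1
      obtain ⟨s, hs, rfl⟩ := h1
      obtain ⟨e, he, rfl⟩ := heb
      obtain ⟨f, hf, rfl⟩ := hfb
      have hsS : (s : G) ∈ (S : Subgroup G) := hS ⟨s, hs, rfl⟩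
      have heS : (e : G) ∈ (S : Subgroup G) := hS ⟨e, hS₂ he, rfl⟩
      have hfS : (f : G) ∈ (S : Subgroup G) := hS ⟨f, hS₂ hf, rfl⟩
      have h3 := comm_central_of_class_le_two hnil hcl hsS heS hfS
      have h4 : f * ⁅s, e⁆ = ⁅s, e⁆ * f := by
        apply Subtype.ext
        simpa [commutatorElement_def] using h3
      have h5 := congrArg π h4
      simpa only [map_mul, map_commutatorElement] using h5
  intro y hy
  have hy₁ : (⟨y, hYX hy⟩ : ↥X) ∈ Y₁ := hy
  have h1 : π ⟨y, hYX hy⟩ ∈ Y₁.map π := ⟨_, hy₁, rfl⟩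
  rw [key, Subgroup.mem_bot, hπker] at h1
  exact ⟨_, h1, rfl⟩

end Core

end Cfsg.Agent.Lib.Transitivity.Local
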