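/-
Kernel lemmas: an elementary abelian group acting on a nontrivial section of a `q`-group has a
subgroup of index at most `p` with nontrivial fixed points there.
-/
import Cfsg.Agent.Lib.FPF.Basic
import Cfsg.Agent.Lib.Core.CoprimeQuotient

set_option autoImplicit false

namespace Cfsg.Agent.Lib.Transitivity.Rank

open Cfsg Cfsg.Agent.Lib.FPF.Basic

section Abstract

variable {F₀ Γ : Type*} [Group F₀] [Finite F₀] [Group Γ] [Finite Γ]

/-- `F₀` acts on the nontrivial `q`-group `A` through `θ`: a subgroup of index at most `p` has a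
nontrivial fixed point. -/
theorem exists_large_fixed {p q : ℕ} [hp : Fact p.Prime] [hq : Fact q.Prime]
    (hFc : ∀ a b : F₀, a * b = b * a) (hFp : ∀ f : F₀, f ^ p = 1) (θ : F₀ →* Γ)
    (A : Subgroup Γ) (hA : IsPGroup q A) (hA1 : A ≠ ⊥)
    (hFA : ∀ f : F₀, θ f ∈ Subgroup.normalizer (A : Set Γ)) :
    ∃ F' : Subgroup F₀, Nat.card F₀ ≤ p * Nat.card F' ∧
      ∃ x ∈ A, x ≠ 1 ∧ ∀ f ∈ F', θ f * x = x * θ f := by
  classical
  -- the centre of `A`
  set V : Subgroup Γ := A ⊓ Subgroup.centralizer (A : Set Γ) with hV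
  have hVcomm : ∀ a ∈ V, ∀ b ∈ V, a * b = b * a := fun a ha b hb =>
    (Subgroup.mem_centralizer_iff.mp hb.2 a ha.1)
  have hVne : ∃ v ∈ V, v ≠ 1 := by
    haveI : Nontrivial A := (Subgroup.nontrivial_iff_ne_bot A).mpr hA1
    haveI : Nontrivial (Subgroup.center A) := hA.center_nontrivial
    obtain ⟨⟨z, hz⟩, hz1⟩ := exists_ne (1 : Subgroup.center A)
    refine ⟨z, ⟨z.2, Subgroup.mem_centralizer_iff.mpr ?_⟩, ?_⟩
    · intro y hy
      have := (Subgroup.mem_center_iff.mp hz) ⟨y, hy⟩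
      exact congrArg Subtype.val this
    · intro h
      apply hz1
      apply Subtype.ext
      apply Subtype.ext
      simpa using h
  have hVN : ∀ f : F₀, ∀ v ∈ V, θ f * v * (θ f)⁻¹ ∈ V := by
    intro f v hv
    have hg := hFA f
    refine ⟨(Subgroup.mem_normalizer_iff.mp hg v).1 hv.1, Subgroup.mem_centralizer_iff.mpr ?_⟩
    intro y hy
    have hy' : (θ f)⁻¹ * y * θ f ∈ A := by
      have := (Subgroup.mem_normalizer_iff.mp (inv_mem hg) y).1 hy
      simpa using this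
    have h3 := Subgroup.mem_centralizer_iff.mp hv.2 _ hy'
    calc y * (θ f * v * (θ f)⁻¹) = θ f * (((θ f)⁻¹ * y * θ f) * v) * (θ f)⁻¹ := by group
      _ = θ f * (v * ((θ f)⁻¹ * y * θ f)) * (θ f)⁻¹ := by rw [h3]
      _ = θ f * v * (θ f)⁻¹ * y := by group
  -- a maximal subgroup with a fixed point
  let 𝓕 : Set (Subgroup F₀) := {F' | ∃ v ∈ V, v ≠ 1 ∧ ∀ f ∈ F', θ f * v = v * θ f}
  have h𝓕 : (⊥ : Subgroup F₀) ∈ 𝓕 := by
    obtain ⟨v, hv, hv1⟩ := hVne
    refine ⟨v, hv, hv1, ?_⟩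
    intro f hf
    rw [Subgroup.mem_bot] at hf
    simp [hf]
  obtain ⟨F', -, hF'⟩ := (Set.toFinite 𝓕).exists_le_maximal h𝓕
  obtain ⟨v₀, hv₀V, hv₀1, hv₀F⟩ := hF'.1
  refine ⟨F', ?_, v₀, hv₀V.1, hv₀1, hv₀F⟩
  -- the fixed points of `F'`
  set V' : Subgroup Γ := V ⊓ Subgroup.centralizer (F'.map θ : Set Γ) with hV'
  have hV'mem : ∀ v : Γ, v ∈ V' ↔ v ∈ V ∧ ∀ f ∈ F', θ f * v = v * θ f := by
    intro v
    rw [hV', Subgroup.mem_inf, Subgroup.mem_centralizer_iff]
    constructor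
    · rintro ⟨h1, h2⟩
      exact ⟨h1, fun f hf => h2 (θ f) ⟨f, hf, rfl⟩⟩
    · rintro ⟨h1, h2⟩
      refine ⟨h1, ?_⟩
      rintro _ ⟨f, hf, rfl⟩
      exact h2 f hf
  have hV'N : ∀ f : F₀, ∀ v ∈ V', θ f * v * (θ f)⁻¹ ∈ V' := by
    intro f v hv
    rw [hV'mem] at hv ⊢
    refine ⟨hVN f v hv.1, ?_⟩
    intro g hg
    have h1 : θ g * θ f = θ f * θ g := by rw [← map_mul, ← map_mul, hFc]
    have h2 := hv.2 g hg
    calc θ g * (θ f * v * (θ f)⁻¹) = (θ g * θ f) * v * (θ f)⁻¹ := by group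
      _ = θ f * (θ g * v) * (θ f)⁻¹ := by rw [h1]; group
      _ = θ f * (v * θ g) * (θ f)⁻¹ := by rw [h2]
      _ = θ f * v * (θ f)⁻¹ * (θ f * θ g * (θ f)⁻¹) := by group
      _ = θ f * v * (θ f)⁻¹ * θ g := by
        rw [← h1]
        group
  -- elements outside `F'` act without fixed points
  have hfpf : ∀ c : F₀, c ∉ F' → ∀ v ∈ V', θ c * v = v * θ c → v = 1 := by
    intro c hc v hv hcv
    by_contra hv1
    rw [hV'mem] at hv
    have hmem : F' ⊔ Subgroup.zpowers c ∈ 𝓕 := by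
      refine ⟨v, hv.1, hv1, ?_⟩
      have hle : F' ⊔ Subgroup.zpowers c ≤
          (Subgroup.centralizer ({v} : Set Γ)).comap θ := by
        apply sup_le
        · intro f hf
          show θ f ∈ Subgroup.centralizer ({v} : Set Γ)
          rw [Subgroup.mem_centralizer_singleton_iff]
          exact hv.2 f hf
        · rw [Subgroup.zpowers_le]
          show θ c ∈ Subgroup.centralizer ({v} : Set Γ)
          rw [Subgroup.mem_centralizer_singleton_iff]
          exact hcv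
      intro f hf
      have := hle hf
      have h2 : θ f ∈ Subgroup.centralizer ({v} : Set Γ) := this
      rwa [Subgroup.mem_centralizer_singleton_iff] at h2
    have hle := hF'.2 hmem le_sup_left
    exact hc (hle (Subgroup.mem_sup_right (Subgroup.mem_zpowers c)))
  -- the model
  have hV'c : ∀ x y : V', x * y = y * x := by
    rintro ⟨x, hx⟩ ⟨y, hy⟩
    apply Subtype.ext
    exact hVcomm x ((hV'mem x).mp hx).1 y ((hV'mem y).mp hy).1
  letI : CommGroup V' := { (inferInstance : Group V') with mul_comm := hV'c }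
  let ψ : F₀ →* AddMonoid.End (Additive V') :=
    { toFun := fun f =>
        { toFun := fun v => Additive.ofMul
            (⟨θ f * (v.toMul : Γ) * (θ f)⁻¹, hV'N f _ v.toMul.2⟩ : V')
          map_zero' := by
            apply Additive.toMul.injective
            apply Subtype.ext
            simp
          map_add' := by
            intro v w
            apply Additive.toMul.injective
            apply Subtype.ext
            simp [mul_assoc] }
      map_one' := by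
        refine AddMonoidHom.ext fun v => ?_
        apply Additive.toMul.injective
        apply Subtype.ext
        show θ 1 * (v.toMul : Γ) * (θ 1)⁻¹ = (v.toMul : Γ)
        simp
      map_mul' := by
        intro a b
        refine AddMonoidHom.ext fun v => ?_
        apply Additive.toMul.injective
        apply Subtype.ext
        show θ (a * b) * (v.toMul : Γ) * (θ (a * b))⁻¹ =
          θ a * (θ b * (v.toMul : Γ) * (θ b)⁻¹) * (θ a)⁻¹
        simp [mul_assoc] }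
  have hψ : ∀ f v, ((ψ f v).toMul : Γ) = θ f * (v.toMul : Γ) * (θ f)⁻¹ := fun _ _ => rfl
  haveI hN : F'.Normal := ⟨fun n hn g => by
    have : g * n * g⁻¹ = n := by rw [hFc g n]; group
    rw [this]; exact hn⟩
  have hψ1 : ∀ f ∈ F', ψ f = 1 := by
    intro f hf
    refine AddMonoidHom.ext fun v => ?_
    apply Additive.toMul.injective
    apply Subtype.ext
    show θ f * (v.toMul : Γ) * (θ f)⁻¹ = (v.toMul : Γ)
    have h1 := ((hV'mem _).mp v.toMul.2).2 f hf
    rw [h1]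
    group
  let φ : F₀ ⧸ F' →* AddMonoid.End (Additive V') := QuotientGroup.lift F' ψ hψ1
  have hφfpf : IsFPF φ := by
    intro a ha w hw
    obtain ⟨c, rfl⟩ := QuotientGroup.mk_surjective a
    have hc : c ∉ F' := fun h => ha ((QuotientGroup.eq_one_iff c).mpr h)
    have h1 : ψ c w = w := hw
    have h2 : ((ψ c w).toMul : Γ) = ((w.toMul : V') : Γ) := congrArg (fun t : Additive V' => ((t.toMul : V') : Γ)) h1
    rw [hψ] at h2
    have h3 : θ c * (w.toMul : Γ) = (w.toMul : Γ) * θ c := by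
      calc θ c * (w.toMul : Γ) = (θ c * (w.toMul : Γ) * (θ c)⁻¹) * θ c := by group
        _ = _ := by rw [h2]
    have h4 := hfpf c hc _ w.toMul.2 h3
    apply Additive.toMul.injective
    exact Subtype.ext h4
  haveI : Nontrivial (Additive V') := by
    refine ⟨⟨Additive.ofMul ⟨v₀, (hV'mem _).mpr ⟨hv₀V, hv₀F⟩⟩, 0, ?_⟩⟩
    intro h
    apply hv₀1
    exact congrArg (fun t : Additive V' => ((t.toMul : V') : Γ)) h
  have hcyc : IsCyclic (F₀ ⧸ F') := isCyclic_of_comm hφfpf (by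
    intro a b
    obtain ⟨a, rfl⟩ := QuotientGroup.mk_surjective a
    obtain ⟨b, rfl⟩ := QuotientGroup.mk_surjective b
    rw [← QuotientGroup.mk_mul, ← QuotientGroup.mk_mul, hFc])
  obtain ⟨g, hg⟩ := hcyc.exists_generator
  have hgp : g ^ p = 1 := by
    obtain ⟨c, rfl⟩ := QuotientGroup.mk_surjective g
    rw [← QuotientGroup.mk_pow, hFp, QuotientGroup.mk_one]
  have hcard : Nat.card (F₀ ⧸ F') ≤ p := by
    rw [← orderOf_eq_card_of_forall_mem_zpowers hg]
    exact orderOf_le_of_pow_eq_one hp.out.pos hgp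
  have h5 := Subgroup.card_eq_card_quotient_mul_card_subgroup F'
  rw [h5]
  exact Nat.mul_le_mul_right _ hcard

end Abstract

section Mod

variable {G : Type*} [Group G] [Finite G]

/-- The form modulo a subgroup `D`. -/
theorem exists_large_fixed_mod {p q : ℕ} [hp : Fact p.Prime] [hq : Fact q.Prime] (hpq : p ≠ q)
    (F A D : Subgroup G) (hFc : ∀ a ∈ F, ∀ b ∈ F, a * b = b * a) (hFp : ∀ f ∈ F, f ^ p = 1)
    (hA : IsPGroup q A) (hDA : D < A) (hAD : A ≤ Subgroup.normalizer (D : Set G))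
    (hFD : F ≤ Subgroup.normalizer (D : Set G)) (hFA : F ≤ Subgroup.normalizer (A : Set G)) :
    ∃ F' : Subgroup G, F' ≤ F ∧ Nat.card F ≤ p * Nat.card F' ∧
      ∃ x ∈ A, x ∉ D ∧ ∀ f ∈ F', f * x = x * f := by
  classical
  set N := Subgroup.normalizer (D : Set G) with hN
  set D₁ : Subgroup ↥N := D.subgroupOf N with hD₁
  haveI hD₁n : D₁.Normal := Subgroup.normal_in_normalizer
  let π : ↥N →* ↥N ⧸ D₁ := QuotientGroup.mk' D₁
  have hπker : ∀ x : ↥N, π x = 1 ↔ x ∈ D₁ := fun x => QuotientGroup.eq_one_iff x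
  let θ : F →* ↥N ⧸ D₁ := π.comp (Subgroup.inclusion hFD)
  have hθ : ∀ f : F, θ f = π ⟨f, hFD f.2⟩ := fun _ => rfl
  let Ab : Subgroup (↥N ⧸ D₁) := (A.subgroupOf N).map π
  have hAbp : IsPGroup q Ab := (hA.comap_subtype).map π
  have hAbne : Ab ≠ ⊥ := by
    obtain ⟨a, ha, haD⟩ := SetLike.exists_of_lt hDA
    intro h
    have h1 : π ⟨a, hAD ha⟩ ∈ Ab := ⟨⟨a, hAD ha⟩, ha, rfl⟩
    rw [h, Subgroup.mem_bot, hπker] at h1
    exact haD h1
  have hN' : ∀ f : F, θ f ∈ Subgroup.normalizer (Ab : Set (↥N ⧸ D₁)) := by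
    have h1 : (⊤ : Subgroup F).map θ ≤ Subgroup.normalizer (Ab : Set (↥N ⧸ D₁)) := by
      rw [Subgroup.le_normalizer_iff]
      rintro _ ⟨f, -, rfl⟩ _ ⟨a, ha, rfl⟩
      refine ⟨⟨f, hFD f.2⟩ * a * ⟨f, hFD f.2⟩⁻¹, ?_, by simp [hθ]⟩
      exact (Subgroup.mem_normalizer_iff.mp (hFA f.2) a).1 ha
    exact fun f => h1 ⟨f, trivial, rfl⟩
  obtain ⟨F', hcard, xb, hxb, hxb1, hxbF⟩ := exists_large_fixed (p := p) (q := q)
    (fun a b => Subtype.ext (hFc a a.2 b b.2))
    (fun a => Subtype.ext (by simpa using hFp a a.2)) θ Ab hAbp hAbne hN'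
  obtain ⟨x, hx, rfl⟩ := hxb
  set F'' : Subgroup G := F'.map F.subtype with hF''
  have hF''F : F'' ≤ F := by
    rintro _ ⟨f, -, rfl⟩
    exact f.2
  have hcard'' : Nat.card F'' = Nat.card F' := Subgroup.card_map_of_injective F.subtype_injective
  refine ⟨F'', hF''F, by rw [hcard'']; exact hcard, ?_⟩
  -- lifting
  have hF''p : IsPGroup p F'' := by
    intro f
    refine ⟨1, ?_⟩
    apply Subtype.ext
    simpa using hFp f (hF''F f.2)
  have hP : IsPGroup p (F''.subgroupOf N) := hF''p.comap_subtype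
  have hD₁c : (Nat.card D₁).Coprime p := by
    have h1 : Nat.card D₁ = Nat.card D :=
      Nat.card_congr (Subgroup.subgroupOfEquivOfLe Subgroup.le_normalizer).toEquiv
    rw [h1]
    obtain ⟨n, hn⟩ := IsPGroup.iff_card.mp (hA.to_le hDA.le)
    rw [hn]
    apply Nat.Coprime.pow_left
    exact (Nat.coprime_primes hq.out hp.out).mpr (Ne.symm hpq)
  have hcomm : ∀ u ∈ F''.subgroupOf N, x * u * x⁻¹ * u⁻¹ ∈ D₁ := by
    rintro ⟨u, huN⟩ hu
    obtain ⟨f, hf, rfl⟩ : (u : G) ∈ F'' := hu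
    rw [← hπker]
    have h1 := hxbF f hf
    rw [hθ] at h1
    simp only [map_mul, map_inv]
    have h2 : π ⟨F.subtype f, huN⟩ * π x = π x * π ⟨F.subtype f, huN⟩ := h1
    rw [← h2]
    group
  obtain ⟨n, hn, c, hc, hxc⟩ :=
    Cfsg.Agent.Lib.Core.CoprimeQuotient.exists_mem_centralizer_of_commutator_mem hD₁n hP hD₁c hcomm
  have hxG : (x : G) = (n : G) * (c : G) := congrArg Subtype.val hxc
  have hnD : (n : G) ∈ D := hn
  have hxA : (x : G) ∈ A := hx
  refine ⟨c, ?_, ?_, ?_⟩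
  · have h1 : (c : G) = (n : G)⁻¹ * x := by rw [hxG]; group
    rw [h1]
    exact A.mul_mem (A.inv_mem (hDA.le hnD)) hxA
  · intro hcD
    apply hxb1
    rw [hπker]
    show (x : G) ∈ D
    rw [hxG]
    exact D.mul_mem hnD hcD
  · intro f hf
    have h1 := Subgroup.mem_centralizer_iff.mp hc ⟨f, (hFD (hF''F hf))⟩ hf
    exact congrArg Subtype.val h1

/-- The rank three argument: some `b ≠ 1` of `E` has nontrivial fixed points on both sections. -/
theorem exists_common_fixed {p q : ℕ} [hp : Fact p.Prime] [hq : Fact q.Prime] (hpq : p ≠ q)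
    (E A₁ A₂ D : Subgroup G) (hEc : ∀ a ∈ E, ∀ b ∈ E, a * b = b * a)
    (hrank : ¬ PRankLE p 2 E) (hA₁ : IsPGroup q A₁) (hA₂ : IsPGroup q A₂)
    (hD₁ : D < A₁) (hD₂ : D < A₂) (hA₁D : A₁ ≤ Subgroup.normalizer (D : Set G))
    (hA₂D : A₂ ≤ Subgroup.normalizer (D : Set G)) (hED : E ≤ Subgroup.normalizer (D : Set G))
    (hEA₁ : E ≤ Subgroup.normalizer (A₁ : Set G)) (hEA₂ : E ≤ Subgroup.normalizer (A₂ : Set G)) :
    ∃ b ∈ E, b ≠ 1 ∧ (∃ x ∈ A₁, x ∉ D ∧ b * x = x * b) ∧ (∃ x ∈ A₂, x ∉ D ∧ b * x = x * b) := by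
  unfold PRankLE at hrank
  push Not at hrank
  obtain ⟨B, hBc, hBp, hBcard⟩ := hrank
  set F₀ : Subgroup G := B.map E.subtype with hF₀
  have hF₀E : F₀ ≤ E := by
    rintro _ ⟨f, -, rfl⟩
    exact f.2
  have hF₀c : Nat.card F₀ = Nat.card B := Subgroup.card_map_of_injective E.subtype_injective
  have hF₀p : ∀ f ∈ F₀, f ^ p = 1 := by
    rintro _ ⟨f, hf, rfl⟩
    have := congrArg Subtype.val (hBp f hf)
    simpa using this
  obtain ⟨F₁, hF₁, hcard₁, x₁, hx₁, hx₁D, hx₁F⟩ := exists_large_fixed_mod hpq F₀ A₁ D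
    (fun a ha b hb => hEc a (hF₀E ha) b (hF₀E hb)) hF₀p hA₁ hD₁ hA₁D (hF₀E.trans hED)
    (hF₀E.trans hEA₁)
  obtain ⟨F₂, hF₂, hcard₂, x₂, hx₂, hx₂D, hx₂F⟩ := exists_large_fixed_mod hpq F₁ A₂ D
    (fun a ha b hb => hEc a (hF₀E (hF₁ ha)) b (hF₀E (hF₁ hb))) (fun f hf => hF₀p f (hF₁ hf)) hA₂ hD₂
    hA₂D ((hF₁.trans hF₀E).trans hED) ((hF₁.trans hF₀E).trans hEA₂)
  have hppos : 0 < p := hp.out.pos
  have h1 : p ^ 2 < p * Nat.card F₁ := by
    rw [← hF₀c] at hBcard
    exact lt_of_lt_of_le hBcard hcard₁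
  have h2 : p < Nat.card F₁ := by
    rw [pow_two] at h1
    exact Nat.lt_of_mul_lt_mul_left h1
  have h3 : p * 1 < p * Nat.card F₂ := by
    rw [mul_one]
    exact lt_of_lt_of_le h2 hcard₂
  have h4 : 1 < Nat.card F₂ := Nat.lt_of_mul_lt_mul_left h3
  have hne : F₂ ≠ ⊥ := by
    intro h
    rw [h, Subgroup.card_bot] at h4
    exact lt_irrefl _ h4
  obtain ⟨⟨b, hb⟩, hb1'⟩ := (Subgroup.ne_bot_iff_exists_ne_one).1 hne
  have hb1 : b ≠ 1 := fun h => hb1' (Subtype.ext h)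
  exact ⟨b, hF₀E (hF₁ (hF₂ hb)), hb1, ⟨x₁, hx₁, hx₁D, hx₁F b (hF₂ hb)⟩, ⟨x₂, hx₂, hx₂D, hx₂F b hb⟩⟩

end Mod

end Cfsg.Agent.Lib.Transitivity.Rank
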